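import Cfsg.Agent.ZJCenter.Normal

/-!
In a `p`-stable fusion system, `p` odd, `Z(J(S))` is normal, for `J` generated by elementary abelian subgroups.
-/

set_option autoImplicit false
set_option linter.style.haveILetI false

open Cfsg

namespace CfsgLib.ZJCenter

open Cfsg.FusionSystem CfsgLib.Fusion

universe u

variable {Ω : Type u} [Group Ω] {p : ℕ}

open scoped Classical in
/-- `Z(J(P/B))`, pulled back to `P`. -/
noncomputable def centerFunctor (p : ℕ) (B P : Subgroup Ω) : Subgroup Ω :=
  if h : (B.subgroupOf P).Normal then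
    haveI := h
    ((Z p (⊤ : Subgroup (P ⧸ B.subgroupOf P))).comap (QuotientGroup.mk' (B.subgroupOf P))).map P.subtype
  else P

variable {B P : Subgroup Ω}

theorem centerFunctor_le : centerFunctor p B P ≤ P := by
  unfold centerFunctor
  split
  · rintro _ ⟨x, -, rfl⟩; exact x.2
  · exact le_rfl

theorem map_centerFunctor {L : Type u} [Group L] (f : P →* L) (hf : f.ker = B.subgroupOf P) :
    ((centerFunctor p B P).subgroupOf P).map f = Z p f.range := by
  haveI hn : (B.subgroupOf P).Normal := hf ▸ f.normal_ker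
  set q := QuotientGroup.mk' (B.subgroupOf P)
  let g := QuotientGroup.lift (B.subgroupOf P) f hf.ge
  have hg : Function.Injective g := by
    rw [← MonoidHom.ker_eq_bot_iff, QuotientGroup.ker_lift, hf, QuotientGroup.map_mk'_self]
  have hcomp : g.comp q = f := QuotientGroup.lift_comp_mk' _ f _
  have hfun : (centerFunctor p B P).subgroupOf P = (Z p (⊤ : Subgroup (P ⧸ B.subgroupOf P))).comap q := by
    rw [centerFunctor, dif_pos hn]
    exact Subgroup.comap_map_eq_self_of_injective P.subtype_injective _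
  rw [hfun, ← hcomp, ← Subgroup.map_map, Subgroup.map_comap_eq_self_of_surjective
    (QuotientGroup.mk'_surjective _), ← Z_map g fun x _ h => hg (h.trans (map_one g).symm)]
  congr 1
  rw [MonoidHom.range_comp, MonoidHom.range_eq_top.2 (QuotientGroup.mk'_surjective _)]

theorem mem_centerFunctor [hn : (B.subgroupOf P).Normal] (x : P) :
    (x : Ω) ∈ centerFunctor p B P ↔ QuotientGroup.mk' (B.subgroupOf P) x ∈
        ((centerFunctor p B P).subgroupOf P).map (QuotientGroup.mk' (B.subgroupOf P)) := by
  refine ⟨fun h => ⟨x, h, rfl⟩, fun h => ?_⟩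
  rw [centerFunctor, dif_pos hn] at h ⊢
  obtain ⟨y, hy, hyx⟩ := h
  obtain ⟨z, hz, hzy⟩ := hy
  obtain rfl : z = y := Subtype.ext hzy
  refine ⟨x, ?_, rfl⟩
  rw [SetLike.mem_coe, Subgroup.mem_comap, ← hyx]
  exact hz

theorem le_centerFunctor (hBP : B ≤ P) (hPB : P ≤ Subgroup.normalizer (B : Set Ω)) :
    B ≤ centerFunctor p B P := by
  haveI := subgroupOf_normal_of_le hPB
  intro b hb
  rw [mem_centerFunctor (⟨b, hBP hb⟩ : P),
    show QuotientGroup.mk' (B.subgroupOf P) ⟨b, hBP hb⟩ = 1 from (QuotientGroup.eq_one_iff _).2 hb]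
  exact one_mem _

variable {S : Subgroup Ω} [Finite S] {F : Cfsg.FusionSystem S}

theorem isFunctor_centerFunctor [Fact p.Prime] (hS : IsPGroup p S) : IsFunctor F (centerFunctor p) := by
  refine ⟨fun hBP _ hPB => ⟨le_centerFunctor hBP hPB, centerFunctor_le⟩, fun {B P} hBP hPS hPB => ?_, ?_⟩
  · haveI := subgroupOf_normal_of_le hPB
    haveI := finite_of_le hPS
    refine lt_of_le_of_ne (le_centerFunctor hBP.le hPB) fun h => ?_
    obtain ⟨x, hxP, hxB⟩ := SetLike.exists_of_lt hBP
    haveI : Nontrivial (P ⧸ B.subgroupOf P) :=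
      ⟨QuotientGroup.mk' _ ⟨x, hxP⟩, 1, fun h => hxB ((QuotientGroup.eq_one_iff _).1 h :)⟩
    have hp : IsPGroup p (P ⧸ B.subgroupOf P) :=
      (hS.to_le hPS).of_surjective _ (QuotientGroup.mk'_surjective _)
    have h1 : ((centerFunctor p B P).subgroupOf P).map (QuotientGroup.mk' (B.subgroupOf P)) = ⊥ := by
      rw [← h, QuotientGroup.map_mk'_self]
    rw [map_centerFunctor _ (QuotientGroup.ker_mk' _), MonoidHom.range_eq_top.2 (QuotientGroup.mk'_surjective _)] at h1
    exact Z_ne_bot (hp.to_subgroup _) top_ne_bot h1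
  · intro B P P' hBP hBP' hPS hPB φ hφ hr hB x
    haveI := subgroupOf_normal_of_le hPB
    set e := isoOfHom (F.injective_of_mem hφ) hr
    have hmap : (B.subgroupOf P).map e.toMonoidHom = B.subgroupOf P' := by
      ext y
      obtain ⟨z, rfl⟩ := e.surjective y
      constructor
      · rintro ⟨z', hz', hzz⟩
        obtain rfl : z' = z := e.injective hzz
        exact (hB z').2 hz'
      · exact fun h => ⟨z, (hB z).1 h, rfl⟩
    haveI : (B.subgroupOf P').Normal := hmap ▸ Subgroup.Normal.map inferInstance _ e.surjective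
    set f := (QuotientGroup.mk' (B.subgroupOf P')).comp e.toMonoidHom with hfdef
    have hker : f.ker = B.subgroupOf P := by
      ext z
      rw [MonoidHom.mem_ker]
      exact (QuotientGroup.eq_one_iff _).trans (hB z)
    have hfr : f.range = (QuotientGroup.mk' (B.subgroupOf P')).range := by
      rw [hfdef, MonoidHom.range_comp, (MonoidHom.range_eq_top.2 e.surjective : e.toMonoidHom.range = ⊤),
        MonoidHom.range_eq_map]
    have h1 : ((centerFunctor p B P).subgroupOf P).map f =
        ((centerFunctor p B P').subgroupOf P').map (QuotientGroup.mk' (B.subgroupOf P')) := by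
      rw [map_centerFunctor f hker, map_centerFunctor _ (QuotientGroup.ker_mk' _), hfr]
    rw [show φ x = ((e x : P') : Ω) from rfl, mem_centerFunctor (e x),
      show QuotientGroup.mk' (B.subgroupOf P') (e x) = f x from rfl, ← h1]
    refine ⟨fun h => ?_, fun h => ⟨x, h, rfl⟩⟩
    obtain ⟨y, hy, hyx⟩ := h
    have hb : x⁻¹ * y ∈ f.ker := by rw [MonoidHom.mem_ker, map_mul, map_inv, hyx, inv_mul_cancel]
    rw [hker] at hb
    have h3 : ((x⁻¹ * y : P) : Ω) ∈ centerFunctor p B P := le_centerFunctor hBP hPB hb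
    have := mul_mem (show (y : Ω) ∈ centerFunctor p B P from hy) (inv_mem h3)
    simpa using this

/-- **`Z(J(S))` is normal** in a stable system. -/
theorem isNormal_Z_of_stable [Fact p.Prime] (hp2 : p ≠ 2) (hS : IsPGroup p S) (hF : F.IsSaturated p)
    (hst : ∀ P ≤ S, IsStableAut p (F.autGroup P)) : F.IsNormal (Z p S) := by
  have hloc : IsLocalFunctor p F (centerFunctor p) := by
    refine CfsgLib.StableQuot.isLocalFunctor_of_stable hp2 hS hF hst
      (fun B P hBP _ hPB => ⟨le_centerFunctor hBP hPB, centerFunctor_le⟩) ?_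
    intro B P hBP hPS L _ _ f T hT hker hcon hstL hfus
    rw [map_centerFunctor f hker, ← hT]
    exact Z_normal hp2 (Nat.card L) L le_rfl hcon hstL T
  have hbot : F.IsNormal (⊥ : Subgroup Ω) := by
    refine isNormal_of_extends bot_le fun P φ hφ => ⟨φ.comp (Subgroup.inclusion (sup_bot_eq P).le),
      CfsgLib.Fusion.restrict hφ _, fun x => rfl, fun q hq => ?_⟩
    obtain rfl := Subgroup.mem_bot.1 hq
    exact Subgroup.mem_bot.2 (map_one (φ.comp (Subgroup.inclusion (sup_bot_eq P).le)))
  have hbp : IsPGroup p (F.autGroup (⊥ : Subgroup Ω)) := fun a =>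
    ⟨0, Subtype.ext (MulEquiv.ext fun x => Subsingleton.elim _ _)⟩
  have h := controls_of_local hS hF (isFunctor_centerFunctor hS) hloc S F ⊥ ⊥ le_rfl hF
    (fun _ _ h => h) hbot hbp le_rfl hbot fun R hR _ => hR
  have hbS : centerFunctor p (⊥ : Subgroup Ω) S = Z p S := by
    have hk : S.subtype.ker = (⊥ : Subgroup Ω).subgroupOf S := by
      rw [Subgroup.ker_subtype, Subgroup.bot_subgroupOf]
    have h1 := map_centerFunctor (p := p) S.subtype hk
    rwa [Subgroup.map_subgroupOf_eq_of_le centerFunctor_le, Subgroup.range_subtype] at h1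
  refine isNormal_of_extends (Z_le S) fun P φ hφ => ?_
  rw [← hbS]
  exact h P φ hφ

end CfsgLib.ZJCenter
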